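import Cfsg.Agent.H1.DecompMax

set_option autoImplicit false

/-!
The stabiliser of a decomposition is maximal in the special linear group in dimension at least six.
-/

namespace Cfsg.Agent.H50.LowDim

open Matrix Cfsg.Agent.H1.Decomp

variable {ι : Type} [Fintype ι] [DecidableEq ι] {F : Type*} [Field F] {M : Subgroup (GL ι F)}

/-- A monomial matrix of order three close to the identity moves at most three coordinates. -/
theorem moved_card_le₃ {y : GL ι F} (hy : IsMono (y : Matrix ι ι F)) (hy3 : y * y * y = 1)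
    {W : Submodule F (ι → F)} (hW : Module.finrank F W ≤ 2)
    (hAW : ∀ i, (fun a => ((y : Matrix ι ι F) - 1) a i) ∈ W) :
    ∃ Mv : Finset ι, Mv.card ≤ 3 ∧ (∀ i, i ∈ Mv ↔ ¬ ∀ a, ((y : Matrix ι ι F) - 1) a i = 0) := by
  classical
  refine ⟨Finset.univ.filter fun i => ¬ ∀ a, ((y : Matrix ι ι F) - 1) a i = 0, ?_, fun i => by simp⟩
  by_contra hc
  set Mv := Finset.univ.filter fun i => ¬ (∀ a, ((y : Matrix ι ι F) - 1) a i = 0) with hMv
  obtain ⟨π, d, hyd⟩ := exists_monGL_of_isMono hy
  have hy' : (y : Matrix ι ι F) = monMat π fun i => (d i : F) := by rw [hyd, monGL_coe]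
  have hπ3 : ∀ i, π (π (π i)) = i := by
    intro i
    have h := congrArg Units.val hy3
    rw [Units.val_mul, Units.val_mul, hy', monMat_mul, monMat_mul, Units.val_one] at h
    by_contra hne
    have := congrFun (congrFun h i) i
    simp [monMat, Equiv.Perm.mul_apply, Matrix.one_apply, Ne.symm hne] at this
  have hout : ∀ i a, a ≠ i → a ≠ π i → ((y : Matrix ι ι F) - 1) a i = 0 := by
    intro i a h1 h2
    simp [hy', monMat, h1, h2]
  have hdiag : ∀ i ∈ Mv, ((y : Matrix ι ι F) - 1) i i ≠ 0 := by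
    intro i hi hz
    simp [hMv] at hi
    obtain ⟨a, ha⟩ := hi
    by_cases hai : a = i
    · subst hai; exact ha (by simpa using hz)
    · simp [hy', hai, monMat] at ha hz
      have : π i ≠ i := fun e => hai (ha.trans e)
      simp [Ne.symm this] at hz
  have hcard : 3 < Mv.card := not_le.mp hc
  -- three independent columns
  suffices h : ∃ i₁ ∈ Mv, ∃ i₂ ∈ Mv, ∃ i₃ ∈ Mv, i₂ ≠ i₁ ∧ i₂ ≠ π i₁ ∧ i₃ ≠ i₁ ∧ i₃ ≠ π i₁ ∧ i₃ ≠ i₂ ∧
      i₃ ≠ π i₂ by
    obtain ⟨i₁, hi₁, i₂, hi₂, i₃, hi₃, n1, n2, n3, n4, n5, n6⟩ := h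
    have hli : LinearIndependent F ![(⟨_, hAW i₁⟩ : W), ⟨_, hAW i₂⟩, ⟨_, hAW i₃⟩] := by
      rw [Fintype.linearIndependent_iff]
      intro c hc0
      have h : ∀ a, c 0 * ((y : Matrix ι ι F) - 1) a i₁ + c 1 * ((y : Matrix ι ι F) - 1) a i₂ +
          c 2 * ((y : Matrix ι ι F) - 1) a i₃ = 0 := fun a => by
        have := congrFun (congrArg Subtype.val hc0) a
        simpa [Fin.sum_univ_three] using this
      have h3 := h i₃
      rw [hout i₁ i₃ n3 n4, hout i₂ i₃ n5 n6, mul_zero, mul_zero, zero_add, zero_add] at h3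
      have c3 : c 2 = 0 := (mul_eq_zero.mp h3).resolve_right (hdiag i₃ hi₃)
      have h2 := h i₂
      rw [hout i₁ i₂ n1 n2, c3, mul_zero, zero_add, zero_mul, add_zero] at h2
      have c2 : c 1 = 0 := (mul_eq_zero.mp h2).resolve_right (hdiag i₂ hi₂)
      have h1 := h i₁
      rw [c2, c3, zero_mul, zero_mul, add_zero, add_zero] at h1
      have c1 : c 0 = 0 := (mul_eq_zero.mp h1).resolve_right (hdiag i₁ hi₁)
      intro j
      fin_cases j <;> assumption
    have := hli.fintype_card_le_finrank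
    simp at this
    omega
  by_cases hfix : ∃ i ∈ Mv, π i ≠ i
  · obtain ⟨i, hi, hne⟩ := hfix
    have hne2 : π (π i) ≠ i := fun e => hne (by have h := congrArg π e; rw [hπ3] at h; exact h.symm)
    have hne3 : π (π i) ≠ π i := fun e => hne (π.injective e)
    have hmem : π (π i) ∈ Mv := by
      simp only [hMv, Finset.mem_filter, Finset.mem_univ, true_and]
      intro h
      have := h (π (π i))
      have h2 : π (π (π i)) ≠ π (π i) := fun e => hne3 (π.injective e)
      simp [hy', monMat, Ne.symm h2] at this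
    obtain ⟨i₃, hi₃, hi₃'⟩ := Finset.exists_mem_notMem_of_card_lt_card (s := {i, π i, π (π i)}) (t := Mv)
      (lt_of_le_of_lt Finset.card_le_three hcard)
    simp at hi₃'
    exact ⟨i, hi, π (π i), hmem, i₃, hi₃, hne2, hne3, hi₃'.1, hi₃'.2.1, hi₃'.2.2, by rw [hπ3]; exact hi₃'.1⟩
  · push Not at hfix
    obtain ⟨i₁, hi₁⟩ : Mv.Nonempty := Finset.card_pos.mp (by omega)
    obtain ⟨i₂, hi₂, hi₂'⟩ := Finset.exists_mem_notMem_of_card_lt_card (s := {i₁}) (t := Mv) (by simp; omega)
    obtain ⟨i₃, hi₃, hi₃'⟩ := Finset.exists_mem_notMem_of_card_lt_card (s := {i₁, i₂}) (t := Mv)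
      (lt_of_le_of_lt Finset.card_le_two (by omega))
    simp at hi₂' hi₃'
    exact ⟨i₁, hi₁, i₂, hi₂, i₃, hi₃, hi₂', by rw [hfix i₁ hi₁]; exact hi₂', hi₃'.1,
      by rw [hfix i₁ hi₁]; exact hi₃'.1, hi₃'.2, by rw [hfix i₂ hi₂]; exact hi₃'.2⟩

/-- Weights on a triple of the support give vectors carried into four coordinates. -/
theorem triple_image₃ [Fintype F] (hq : 5 ≤ Fintype.card F) (hn : 5 ≤ Fintype.card ι) (hM : ContainsMon M)
    (hno : ¬ HasRoot M) {g : GL ι F} (hg : g ∈ M) {k a b c : ι} (hab : a ≠ b) (hac : a ≠ c) (hbc : b ≠ c)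
    (ha : (g : Matrix ι ι F) a k ≠ 0) (hb : (g : Matrix ι ι F) b k ≠ 0) (hc : (g : Matrix ι ι F) c k ≠ 0) :
    ∃ Mv : Finset ι, Mv.card ≤ 3 ∧ k ∉ Mv ∧ ∀ (wa wb wc : F), wa + wb + wc = 0 → ∀ l, l ∉ Mv →
      (((g⁻¹ : GL ι F) : Matrix ι ι F) *ᵥ
        (Pi.single a (wa * (g : Matrix ι ι F) a k) + Pi.single b (wb * (g : Matrix ι ι F) b k) +
          Pi.single c (wc * (g : Matrix ι ι F) c k))) l = 0 := by
  classical
  set xa := (g : Matrix ι ι F) a k
  set xb := (g : Matrix ι ι F) b k
  set xc := (g : Matrix ι ι F) c k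
  set π : Equiv.Perm ι := Equiv.swap a b * Equiv.swap b c with hπ
  have hπa : π a = b := by
    simp [hπ, Equiv.Perm.mul_apply, Equiv.swap_apply_of_ne_of_ne hab hac]
  have hπb : π b = c := by
    simp [hπ, Equiv.Perm.mul_apply, Equiv.swap_apply_of_ne_of_ne hac.symm hbc.symm]
  have hπc : π c = a := by simp [hπ, Equiv.Perm.mul_apply]
  have hπo : ∀ l, l ≠ a → l ≠ b → l ≠ c → π l = l := by
    intro l h1 h2 h3
    simp [hπ, Equiv.Perm.mul_apply, Equiv.swap_apply_of_ne_of_ne, h1, h2, h3]
  set d : ι → Fˣ := fun l => if l = a then Units.mk0 (xb / xa) (div_ne_zero hb ha) else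
    if l = b then Units.mk0 (xc / xb) (div_ne_zero hc hb) else
    if l = c then Units.mk0 (xa / xc) (div_ne_zero ha hc) else 1 with hd
  have hdet : ((Equiv.Perm.sign π : ℤ) : F) * ∏ i, (d i : F) = 1 := by
    rw [show Equiv.Perm.sign π = 1 by simp [hπ, Equiv.Perm.sign_swap hab, Equiv.Perm.sign_swap hbc]]
    rw [← Finset.prod_subset (Finset.subset_univ {a, b, c}) (fun l _ hl => by simp at hl; simp [hd, hl]),
      Finset.prod_insert (by simp [hab, hac]), Finset.prod_insert (by simp [hbc]), Finset.prod_singleton]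
    simp [hd, hab.symm, hac.symm, hbc.symm]
    field_simp
  set P := monGL π d with hP
  have hPM : P ∈ M := hM _ _ hdet
  set y := g⁻¹ * P * g with hy
  have hyM : y ∈ M := M.mul_mem (M.mul_mem (M.inv_mem hg) hPM) hg
  have hPv : ∀ (v : ι → F) (l : ι), ((P : Matrix ι ι F) *ᵥ v) l = (d (π.symm l) : F) * v (π.symm l) := fun v l => by
    rw [hP, monGL_coe, monMat_mulVec]
  have hPx : (P : Matrix ι ι F) *ᵥ ((g : Matrix ι ι F) *ᵥ Pi.single k 1) = (g : Matrix ι ι F) *ᵥ Pi.single k 1 := by
    ext l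
    rw [hPv, mulVec_single_one]
    obtain ⟨m, rfl⟩ := π.surjective l
    rw [Equiv.symm_apply_apply]
    change (d m : F) * (g : Matrix ι ι F) m k = (g : Matrix ι ι F) (π m) k
    by_cases h1 : m = a
    · subst h1; rw [hπa]; simp [hd, xa, xb]; exact div_mul_cancel₀ _ ha
    by_cases h2 : m = b
    · subst h2; rw [hπb]; simp [hd, h1, xb, xc]; exact div_mul_cancel₀ _ hb
    by_cases h3 : m = c
    · subst h3; rw [hπc]; simp [hd, h1, h2, xa, xc]; exact div_mul_cancel₀ _ hc
    rw [hπo m h1 h2 h3]; simp [hd, h1, h2, h3]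
  have hyk : ∀ l, (y : Matrix ι ι F) l k = (1 : Matrix ι ι F) l k := by
    intro l
    have : (y : Matrix ι ι F) *ᵥ Pi.single k 1 = Pi.single k 1 := by
      rw [hy, Units.val_mul, Units.val_mul, ← mulVec_mulVec, ← mulVec_mulVec, hPx,
        Cfsg.Agent.H98.gl_inv_mulVec]
    have := congrFun this l
    simpa [Matrix.one_apply, Pi.single_apply] using this
  have hmono : IsMono (y : Matrix ι ι F) := by
    by_contra hm
    exact hno (root_of_fixed_line hq hn hM hyM hm (p := k) fun l hl => by rw [hyk, Matrix.one_apply_ne hl])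
  set Wgen : Set (ι → F) := {((g⁻¹ : GL ι F) : Matrix ι ι F) *ᵥ (Pi.single b xb - Pi.single a xa),
    ((g⁻¹ : GL ι F) : Matrix ι ι F) *ᵥ (Pi.single c xc - Pi.single b xb)} with hWgen
  have hP1 : ∀ v : ι → F, ∃ s t : F, (P : Matrix ι ι F) *ᵥ v - v =
      s • (Pi.single b xb - Pi.single a xa) + t • (Pi.single c xc - Pi.single b xb) := by
    intro v
    refine ⟨v a / xa - v c / xc, v b / xb - v c / xc, ?_⟩
    ext l
    obtain ⟨m, rfl⟩ := π.surjective l
    rw [Pi.sub_apply, hPv, Equiv.symm_apply_apply]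
    by_cases h1 : m = a
    · subst h1; rw [hπa]; simp [hd, hab.symm, hbc]; field_simp; ring
    by_cases h2 : m = b
    · subst h2; rw [hπb]; simp [hd, h1, hac.symm, hbc.symm]; field_simp
    by_cases h3 : m = c
    · subst h3; rw [hπc]; simp [hd, h1, h2, hab, hac]; field_simp; ring
    rw [hπo m h1 h2 h3]; simp [hd, h1, h2, h3]
  have hyv : ∀ v : ι → F, ((y : Matrix ι ι F) - 1) *ᵥ v =
      ((g⁻¹ : GL ι F) : Matrix ι ι F) *ᵥ ((P : Matrix ι ι F) *ᵥ ((g : Matrix ι ι F) *ᵥ v) - (g : Matrix ι ι F) *ᵥ v) := by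
    intro v
    rw [sub_mulVec, one_mulVec, mulVec_sub, Cfsg.Agent.H98.gl_inv_mulVec, hy, Units.val_mul, Units.val_mul,
      ← mulVec_mulVec, ← mulVec_mulVec]
  have hfin : Module.finrank F (Submodule.span F Wgen) ≤ 2 := by
    refine (finrank_span_le_card _).trans ?_
    simp only [hWgen, Set.toFinset_insert, Set.toFinset_singleton]
    exact Finset.card_le_two
  have hAW : ∀ i, (fun l => ((y : Matrix ι ι F) - 1) l i) ∈ Submodule.span F Wgen := by
    intro i
    have : (fun l => ((y : Matrix ι ι F) - 1) l i) = ((y : Matrix ι ι F) - 1) *ᵥ Pi.single i 1 := by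
      rw [mulVec_single_one]; rfl
    rw [this, hyv]
    obtain ⟨s, t, e⟩ := hP1 ((g : Matrix ι ι F) *ᵥ Pi.single i 1)
    rw [e, mulVec_add, mulVec_smul, mulVec_smul]
    exact add_mem (Submodule.smul_mem _ _ (Submodule.subset_span (by simp [hWgen])))
      (Submodule.smul_mem _ _ (Submodule.subset_span (by simp [hWgen])))
  have hP3 : P * P * P = 1 := by
    refine Cfsg.Agent.H98.gl_ext fun v => funext fun l => ?_
    obtain ⟨m, rfl⟩ := π.surjective l
    simp only [Units.val_mul, ← mulVec_mulVec, Units.val_one, Matrix.one_mulVec]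
    rw [hPv, Equiv.symm_apply_apply]
    obtain ⟨m', rfl⟩ := π.surjective m
    rw [hPv, Equiv.symm_apply_apply]
    obtain ⟨m'', rfl⟩ := π.surjective m'
    rw [hPv, Equiv.symm_apply_apply]
    by_cases h1 : m'' = a
    · subst h1; simp [hd, hπa, hπb, hπc, hab.symm, hac.symm, hbc.symm]; field_simp
    by_cases h2 : m'' = b
    · subst h2; simp [hd, hπa, hπb, hπc, h1, hab, hac, hac.symm, hbc.symm]; field_simp
    by_cases h3 : m'' = c
    · subst h3; simp [hd, hπa, hπb, hπc, h1, h2, hab, hac, hbc, hab.symm]; field_simp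
    simp [hπo m'' h1 h2 h3, hd, h1, h2, h3]
  have hy3 : y * y * y = 1 := by
    rw [hy, show g⁻¹ * P * g * (g⁻¹ * P * g) * (g⁻¹ * P * g) = g⁻¹ * (P * P * P) * g by group, hP3]
    group
  obtain ⟨Mv, hMvc, hMv⟩ := moved_card_le₃ hmono hy3 hfin hAW
  refine ⟨Mv, hMvc, ?_, ?_⟩
  · rw [hMv, not_not]
    intro l
    simp [hyk]
  intro wa wb wc hw l hl
  rw [hMv, not_not] at hl
  -- the vector lies in the image of `y - 1`
  have hvec : Pi.single a (wa * xa) + Pi.single b (wb * xb) + Pi.single c (wc * xc) =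
      (P : Matrix ι ι F) *ᵥ (Pi.single a (-wa * xa) + Pi.single b ((wc) * xb)) -
        (Pi.single a (-wa * xa) + Pi.single b ((wc) * xb)) := by
    ext m
    obtain ⟨m, rfl⟩ := π.surjective m
    rw [Pi.sub_apply, hPv, Equiv.symm_apply_apply]
    by_cases h1 : m = a
    · subst h1; rw [hπa]; simp [hd, hab.symm, hbc, hab]; field_simp; linear_combination hw
    by_cases h2 : m = b
    · subst h2; rw [hπb]; simp [hd, h1, hac.symm, hbc.symm]; field_simp
    by_cases h3 : m = c
    · subst h3; rw [hπc]; simp [hd, h1, h2, hab, hac]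
    rw [hπo m h1 h2 h3]; simp [hd, h1, h2, h3]
  rw [hvec]
  set v := (Pi.single a (-wa * xa) + Pi.single b ((wc) * xb) : ι → F)
  have := hyv (((g⁻¹ : GL ι F) : Matrix ι ι F) *ᵥ v)
  rw [Cfsg.Agent.H98.gl_mulVec_inv] at this
  rw [← this]
  -- rows outside the moved coordinates vanish
  refine Finset.sum_eq_zero fun i _ => ?_
  by_cases hli : l = i
  · subst hli; simp [hl l]
  · by_cases hyl : (y : Matrix ι ι F) l i = 0
    · simp [hyl, hli]
    · exfalso
      -- two monomial columns with the same row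
      obtain ⟨σ, e, hσ⟩ := exists_monGL_of_isMono hmono
      have hli' : l = σ i := by
        by_contra h; rw [hσ, monGL_coe, monMat_apply_eq_zero h] at hyl; exact hyl rfl
      have := hl (σ l)
      rw [Matrix.sub_apply, hσ, monGL_coe] at this
      by_cases hσl : σ l = l
      · exact hli (σ.injective (hσl.trans hli'))
      · simp [monMat, hσl] at this

/-- Conjugates of diagonal elements fixing a column are monomial. -/
theorem mono_conj [Fintype F] (hq : 5 ≤ Fintype.card F) (hn : 5 ≤ Fintype.card ι) (hM : ContainsMon M)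
    (hno : ¬ HasRoot M) {g : GL ι F} (hg : g ∈ M) {p : ι} {Z : Finset ι}
    (hz : ∀ l ∈ Z, (g : Matrix ι ι F) l p = 0) (d : ι → Fˣ) (hd : ∏ i, (d i : F) = 1)
    (hdZ : ∀ l, l ∉ Z → d l = 1) : IsMono ((g⁻¹ * monGL 1 d * g : GL ι F) : Matrix ι ι F) := by
  classical
  by_contra hm
  have hdM : monGL 1 d ∈ M := hM _ _ (by simp [hd])
  refine hno (root_of_fixed_line hq hn hM (M.mul_mem (M.mul_mem (M.inv_mem hg) hdM) hg) hm (p := p)
    fun l hl => ?_)
  have hfix : (monGL 1 d : Matrix ι ι F) *ᵥ ((g : Matrix ι ι F) *ᵥ Pi.single p 1) =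
      (g : Matrix ι ι F) *ᵥ Pi.single p 1 := by
    ext m
    rw [monGL_coe, monMat_mulVec, mulVec_single_one]
    change (d m : F) * (g : Matrix ι ι F) m p = (g : Matrix ι ι F) m p
    by_cases hm : m ∈ Z
    · simp [hz m hm]
    · simp [hdZ m hm]
  have : ((g⁻¹ * monGL 1 d * g : GL ι F) : Matrix ι ι F) *ᵥ Pi.single p 1 = Pi.single p 1 := by
    rw [Units.val_mul, Units.val_mul, ← mulVec_mulVec, ← mulVec_mulVec, hfix,
      Cfsg.Agent.H98.gl_inv_mulVec]
  have := congrFun this l
  simpa [hl] using this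

/-- The rows off an eigenspace vanish in a fixed column. -/
theorem col_zero {g : GL ι F} {d : ι → Fˣ} {π : Equiv.Perm ι} {e : ι → Fˣ}
    (he : g⁻¹ * monGL 1 d * g = monGL π e) {i : ι} (hi : π i = i) {l : ι} (hl : (d l : F) ≠ (e i : F)) :
    (g : Matrix ι ι F) l i = 0 := by
  have h2 : monGL 1 d * g = g * monGL π e := by rw [← he]; group
  have h3 : (monGL 1 d : Matrix ι ι F) *ᵥ ((g : Matrix ι ι F) *ᵥ Pi.single i 1) =
      (g : Matrix ι ι F) *ᵥ ((monGL π e : Matrix ι ι F) *ᵥ Pi.single i 1) := by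
    rw [mulVec_mulVec, mulVec_mulVec, ← Units.val_mul, ← Units.val_mul, h2]
  have h4 := congrFun h3 l
  rw [monGL_coe, monMat_mulVec, monGL_coe, monMat_single, hi, mulVec_single, mulVec_single] at h4
  simp [-Matrix.coe_units_inv] at h4
  by_contra hne
  exact hl (mul_right_cancel₀ hne (h4.trans (mul_comm _ _)))

/-- The row of `g⁻¹` at a coordinate is an eigenvector. -/
theorem row_eigen {g : GL ι F} {d : ι → Fˣ} {π : Equiv.Perm ι} {e : ι → Fˣ}
    (he : g⁻¹ * monGL 1 d * g = monGL π e) (k r : ι) :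
    ((g⁻¹ : GL ι F) : Matrix ι ι F) (π r) k * (d k : F) = (e r : F) * ((g⁻¹ : GL ι F) : Matrix ι ι F) r k := by
  have h2 : g⁻¹ * monGL 1 d = monGL π e * g⁻¹ := by rw [← he]; group
  have h3 : ((g⁻¹ : GL ι F) : Matrix ι ι F) *ᵥ ((monGL 1 d : Matrix ι ι F) *ᵥ Pi.single k 1) =
      (monGL π e : Matrix ι ι F) *ᵥ (((g⁻¹ : GL ι F) : Matrix ι ι F) *ᵥ Pi.single k 1) := by
    rw [mulVec_mulVec, mulVec_mulVec, ← Units.val_mul, ← Units.val_mul, h2]
  have h4 := congrFun h3 (π r)
  rw [monGL_coe, monMat_single, monGL_coe, monMat_mulVec, mulVec_single, mulVec_single,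
    Equiv.symm_apply_apply] at h4
  simpa [-Matrix.coe_units_inv] using h4

/-- A coordinate occurring in a given column of `g⁻¹`. -/
theorem exists_row (g : GL ι F) (k : ι) : ∃ i, ((g⁻¹ : GL ι F) : Matrix ι ι F) i k ≠ 0 := by
  by_contra hc
  push Not at hc
  have : ((g⁻¹ : GL ι F) : Matrix ι ι F) *ᵥ Pi.single k 1 = ((g⁻¹ : GL ι F) : Matrix ι ι F) *ᵥ 0 := by
    rw [mulVec_zero, mulVec_single_one]; exact funext hc
  simpa using congrFun (Cfsg.Agent.H98.gl_mulVec_injective g⁻¹ this) k

/-- A monomial conjugate satisfies the cubic equation of its diagonal. -/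
theorem cubic_coef {g : GL ι F} {d : ι → Fˣ} {π : Equiv.Perm ι} {e : ι → Fˣ}
    (he : g⁻¹ * monGL 1 d * g = monGL π e) {s1 s2 s3 : F}
    (hpoly : ∀ m, (d m : F) * ((d m : F) * (d m : F)) - s1 * ((d m : F) * (d m : F)) + s2 * (d m : F) - s3 = 0)
    (m r : ι) :
    ((if r = π (π (π m)) then (e (π (π m)) : F) * ((e (π m) : F) * (e m : F)) else 0)
          - s1 * (if r = π (π m) then (e (π m) : F) * (e m : F) else 0)
          + if r = π m then s2 * (e m : F) else 0) - (if r = m then s3 else 0) = 0 := by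
  have hD : (monGL 1 d : Matrix ι ι F) * ((monGL 1 d : Matrix ι ι F) * (monGL 1 d : Matrix ι ι F))
      - s1 • ((monGL 1 d : Matrix ι ι F) * (monGL 1 d : Matrix ι ι F))
      + s2 • (monGL 1 d : Matrix ι ι F) - s3 • (1 : Matrix ι ι F) = 0 := by
    simp only [monGL_coe, one_monMat_apply, Matrix.diagonal_mul_diagonal]
    ext a b
    by_cases hab : a = b
    · subst hab; simpa using hpoly a
    · simp [hab]
  have hY := congrArg (fun A => ((g⁻¹ : GL ι F) : Matrix ι ι F) * A * (g : Matrix ι ι F)) hD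
  have hconjmul : ∀ A B : Matrix ι ι F, ((g⁻¹ : GL ι F) : Matrix ι ι F) * (A * B) * (g : Matrix ι ι F) =
      (((g⁻¹ : GL ι F) : Matrix ι ι F) * A * (g : Matrix ι ι F)) *
        (((g⁻¹ : GL ι F) : Matrix ι ι F) * B * (g : Matrix ι ι F)) := by
    intro A B
    rw [Matrix.mul_assoc _ (g : Matrix ι ι F), Matrix.mul_assoc _ _ (g : Matrix ι ι F),
      Matrix.mul_assoc _ B, ← Matrix.mul_assoc (g : Matrix ι ι F), ← Matrix.mul_assoc (g : Matrix ι ι F),
      ← Units.val_mul, mul_inv_cancel, Units.val_one, Matrix.one_mul, Matrix.mul_assoc]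
  have hy' : ((g⁻¹ : GL ι F) : Matrix ι ι F) * (monGL 1 d : Matrix ι ι F) * (g : Matrix ι ι F) =
      monMat π fun r => (e r : F) := by
    rw [← Units.val_mul, ← Units.val_mul, he, monGL_coe]
  simp only [Matrix.mul_sub, Matrix.sub_mul, Matrix.mul_add, Matrix.add_mul, Matrix.mul_smul,
    Matrix.smul_mul, Matrix.mul_zero, Matrix.zero_mul, hconjmul, hy'] at hY
  rw [Matrix.mul_one, ← Units.val_mul, inv_mul_cancel, Units.val_one, monMat_mul, monMat_mul] at hY
  have := congrFun (congrFun hY r) m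
  simp [monMat, Equiv.Perm.mul_apply, Matrix.one_apply] at this
  exact this

theorem five_facts [Fintype F] (hq5 : Fintype.card F = 5) : (5 : F) = 0 ∧ (2 : F) ≠ 0 ∧ (3 : F) ≠ 0 := by
  have h5 : (5 : F) = 0 := by
    have := Nat.cast_card_eq_zero F
    rw [hq5] at this
    exact_mod_cast this
  exact ⟨h5, fun he => one_ne_zero (α := F) (by linear_combination h5 - 2 * he),
    fun he => one_ne_zero (α := F) (by linear_combination -h5 + 2 * he)⟩

/-- Five scalars, three zeros in a column. -/
theorem short_five_three [Fintype F] (hq5 : Fintype.card F = 5) (hn : 5 ≤ Fintype.card ι) (hM : ContainsMon M)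
    {g : GL ι F} (hg : g ∈ M) (hgm : ¬ IsMono (g : Matrix ι ι F)) {p : ι} {Z : Finset ι} (hZ : 3 ≤ Z.card)
    (hz : ∀ l ∈ Z, (g : Matrix ι ι F) l p = 0) : HasRoot M := by
  classical
  by_contra hno
  have hq : 5 ≤ Fintype.card F := hq5.ge
  obtain ⟨h5, n2, n3⟩ := five_facts hq5
  obtain ⟨k, hk⟩ := Finset.card_pos.mp (by omega : 0 < Z.card)
  obtain ⟨i, hi⟩ := exists_row g k
  refine hno (root_of_singleton_col hq hn hM hg hgm (i := i) (k := k) fun r hr => ?_)
  obtain ⟨l, hl, hl'⟩ := Finset.exists_mem_notMem_of_card_lt_card (s := {k, r}) (t := Z)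
    (lt_of_le_of_lt Finset.card_le_two (by omega))
  obtain ⟨m, hm, hm'⟩ := Finset.exists_mem_notMem_of_card_lt_card (s := {k, l}) (t := Z)
    (lt_of_le_of_lt Finset.card_le_two (by omega))
  simp at hl' hm'
  set d : ι → Fˣ := fun x => if x = k ∨ x = l then Units.mk0 (2 : F) n2 else
    if x = m then Units.mk0 (2 : F) n2 * Units.mk0 (2 : F) n2 else 1 with hd
  have hprod : ∏ x, (d x : F) = 1 := by
    rw [← Finset.prod_subset (Finset.subset_univ ({k, l, m} : Finset ι))
      (fun x _ hx => by simp at hx; simp [hd, hx]),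
      Finset.prod_insert (by simp [Ne.symm hl'.1, Ne.symm hm'.1]), Finset.prod_pair (Ne.symm hm'.2)]
    simp [hd, hm'.1, hm'.2]
    linear_combination 3 * h5
  obtain ⟨π, e, he⟩ := exists_monGL_of_isMono (mono_conj hq hn hM hno hg hz d hprod fun x hx => by
    simp [hd, show x ≠ k from fun h => hx (h ▸ hk), show x ≠ l from fun h => hx (h ▸ hl),
      show x ≠ m from fun h => hx (h ▸ hm)])
  have hpoly : ∀ x, (d x : F) * ((d x : F) * (d x : F)) - 2 * ((d x : F) * (d x : F)) + 4 * (d x : F) - 3 = 0 := by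
    intro x
    simp only [hd]
    split_ifs
    · simp; linear_combination h5
    · simp; linear_combination 9 * h5
    · simp
      norm_num
  have hdk : (d k : F) = 2 := by simp [hd]
  have hπ : π i = i := by
    by_contra hne
    have c := cubic_coef he hpoly i
    have hm2 : π (π i) ≠ π i := fun h => hne (π.injective h)
    have he0 : ∀ x, (e x : F) ≠ 0 := fun x => Units.ne_zero _
    by_cases h2 : π (π i) = i
    · have a1 := c i
      simp [h2, Ne.symm hne, hne] at a1
      have ev1 := row_eigen he k i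
      have ev2 := row_eigen he k (π i)
      rw [h2] at ev2
      rw [hdk] at ev1 ev2
      set ea := (e i : F)
      set eb := (e (π i) : F)
      set vi := ((g⁻¹ : GL ι F) : Matrix ι ι F) i k
      set vj := ((g⁻¹ : GL ι F) : Matrix ι ι F) (π i) k
      have h4 : eb * ea * vi = 4 * vi := by linear_combination -2 * ev2 - eb * ev1
      have h4' : eb * ea = 4 := mul_right_cancel₀ hi h4
      exact one_ne_zero (α := F) (by linear_combination -a1 - 2 * h4' - 2 * h5)
    · by_cases h3 : π (π (π i)) = i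
      · have a2 := c (π i)
        simp [h3, hne, Ne.symm hm2, he0] at a2
        exact one_ne_zero (α := F) (by linear_combination h5 - a2)
      · have := c (π (π (π i)))
        have hm3 : π (π (π i)) ≠ π (π i) := fun h => hm2 (π.injective h)
        have hm4 : π (π (π i)) ≠ π i := fun h => h2 (π.injective h)
        simp [h3, hm3, hm4, he0] at this
  refine col_zero he hπ ?_
  have ev := row_eigen he k i
  rw [hπ, hdk, mul_comm] at ev
  rw [← mul_right_cancel₀ hi ev]
  simp only [hd]
  split_ifs with h1 h2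
  · exact absurd h1 (by simp [hr, Ne.symm hl'.2])
  · simp
    intro h
    exact n2 (by linear_combination h)
  · simp
    intro h
    exact one_ne_zero (α := F) (by linear_combination -h)

/-- Five scalars, two zeros in a column: some column has at most two non-zero entries. -/
theorem short_five_two [Fintype F] (hq5 : Fintype.card F = 5) (hn : 5 ≤ Fintype.card ι) (hM : ContainsMon M)
    (hno : ¬ HasRoot M) {g : GL ι F} (hg : g ∈ M) {p : ι} {Z : Finset ι} (hZ : 2 ≤ Z.card)
    (hz : ∀ l ∈ Z, (g : Matrix ι ι F) l p = 0) :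
    ∃ i k l : ι, ∀ r, r ∉ ({k, l} : Finset ι) → (g : Matrix ι ι F) r i = 0 := by
  classical
  have hq : 5 ≤ Fintype.card F := hq5.ge
  obtain ⟨h5, n2, n3⟩ := five_facts hq5
  obtain ⟨k, hk⟩ := Finset.card_pos.mp (by omega : 0 < Z.card)
  obtain ⟨i, hi⟩ := exists_row g k
  obtain ⟨l, hl, hlk⟩ := Finset.exists_mem_notMem_of_card_lt_card (s := {k}) (t := Z) (by simp; omega)
  simp at hlk
  refine ⟨i, k, l, fun r hr => ?_⟩
  simp at hr
  set d : ι → Fˣ := fun x => if x = k then Units.mk0 (2 : F) n2 else if x = l then Units.mk0 (3 : F) n3 else 1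
    with hd
  have hprod : ∏ x, (d x : F) = 1 := by
    rw [Fintype.prod_eq_mul k l (Ne.symm hlk) (fun x hx => by simp [hd, hx.1, hx.2])]
    simp [hd, hlk]
    linear_combination h5
  obtain ⟨π, e, he⟩ := exists_monGL_of_isMono (mono_conj hq hn hM hno hg hz d hprod fun x hx => by
    simp [hd, show x ≠ k from fun h => hx (h ▸ hk), show x ≠ l from fun h => hx (h ▸ hl)])
  have hpoly : ∀ x, (d x : F) * ((d x : F) * (d x : F)) - 1 * ((d x : F) * (d x : F)) + 1 * (d x : F) - 1 = 0 := by
    intro x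
    simp only [hd]
    split_ifs
    · simp; linear_combination h5
    · simp; linear_combination 4 * h5
    · simp
  have hdk : (d k : F) = 2 := by simp [hd]
  have hπ : π (π i) = i := by
    by_contra h2
    have hne : π i ≠ i := fun h => h2 (by rw [h, h])
    have c := cubic_coef he hpoly i
    have hm2 : π (π i) ≠ π i := fun h => hne (π.injective h)
    have he0 : ∀ x, (e x : F) ≠ 0 := fun x => Units.ne_zero _
    by_cases h3 : π (π (π i)) = i
    · have a2 := c (π i)
      simp [h3, hne, Ne.symm hm2, he0] at a2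
    · have := c (π (π (π i)))
      have hm3 : π (π (π i)) ≠ π (π i) := fun h => hm2 (π.injective h)
      have hm4 : π (π (π i)) ≠ π i := fun h => h2 (π.injective h)
      simp [h3, hm3, hm4, he0] at this
  -- the square of the element
  have he2 : g⁻¹ * monGL 1 (fun x => d x * d x) * g = monGL (π * π) (fun x => e (π x) * e x) := by
    have : g⁻¹ * monGL 1 (fun x => d x * d x) * g = (g⁻¹ * monGL 1 d * g) * (g⁻¹ * monGL 1 d * g) := by
      have hdd : monGL 1 (fun x => d x * d x) = monGL 1 d * monGL 1 d := Units.ext (by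
        simp [Units.val_mul, monGL_coe, monMat_mul])
      rw [hdd]; group
    rw [this, he]
    exact Units.ext (by simp [Units.val_mul, monGL_coe, monMat_mul])
  refine col_zero he2 (i := i) (by simp [Equiv.Perm.mul_apply, hπ]) ?_
  have ev1 := row_eigen he k i
  have ev2 := row_eigen he k (π i)
  rw [hπ] at ev2
  rw [hdk] at ev1 ev2
  have h4 : (e (π i) : F) * (e i : F) = 4 := mul_right_cancel₀ hi (by linear_combination -2 * ev2 - (e (π i) : F) * ev1)
  simp [hd, hr.1, hr.2, h4]
  intro h
  exact n3 (by linear_combination -h)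

/-- A short proper column gives a root element. -/
theorem root_of_short_col₆ [Fintype F] (hq : 5 ≤ Fintype.card F) (hn : 5 ≤ Fintype.card ι) (hM : ContainsMon M)
    {g : GL ι F} (hg : g ∈ M) (hgm : ¬ IsMono (g : Matrix ι ι F)) {p : ι} {Z : Finset ι} (hZ : 2 ≤ Z.card)
    (hz : ∀ l ∈ Z, (g : Matrix ι ι F) l p = 0) : HasRoot M := by
  classical
  by_contra hno
  have hconj := mono_conj hq hn hM hno hg hz
  have hdiag : ∀ (d : ι → Fˣ) (π : Equiv.Perm ι) (e : ι → Fˣ), g⁻¹ * monGL 1 d * g = monGL π e →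
      ∀ i, π i = i → ∀ l, (d l : F) ≠ (e i : F) → (g : Matrix ι ι F) l i = 0 :=
    fun d π e he i hi l hl => col_zero he hi hl
  obtain ⟨k, hk⟩ := Finset.card_pos.mp (by omega : 0 < Z.card)
  obtain ⟨i, hi⟩ := exists_row g k
  have heig : ∀ (d : ι → Fˣ) (π : Equiv.Perm ι) (e : ι → Fˣ), g⁻¹ * monGL 1 d * g = monGL π e →
      π i = i → (d k : F) = (e i : F) := by
    intro d π e he hπi
    have ev := row_eigen he k i
    rw [hπi, mul_comm] at ev
    exact mul_right_cancel₀ hi ev
  have hsingle : (∀ l, l ≠ k → (g : Matrix ι ι F) l i = 0) → False := fun h =>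
    hno (root_of_singleton_col hq hn hM hg hgm h)
  rcases lt_or_ge (Fintype.card F) 7 with h7 | h7
  swap
  · -- a scalar of large order
    obtain ⟨u, hu⟩ := IsCyclic.exists_monoid_generator (α := Fˣ)
    have horder : orderOf u = Fintype.card F - 1 := by
      rw [← Fintype.card_units, ← Nat.card_eq_fintype_card]
      exact orderOf_eq_card_of_forall_mem_zpowers fun x => by
        obtain ⟨m, hm⟩ := hu x
        exact ⟨m, by simpa using hm⟩
    have hpow : ∀ m, 0 < m → m ≤ 4 → ((u : F)) ^ m ≠ 1 := by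
      intro m hm1 hm4 he
      have h1 : u ^ m = 1 := Units.ext (by simpa using he)
      have := Nat.le_of_dvd hm1 (orderOf_dvd_of_pow_eq_one h1)
      omega
    obtain ⟨l, hl, hlk⟩ := Finset.exists_mem_notMem_of_card_lt_card (s := {k}) (t := Z) (by simp; omega)
    simp at hlk
    set μ := (u : F) with hμ
    set d : ι → Fˣ := Function.update (Function.update (fun _ => 1) k u) l u⁻¹ with hd
    have hprod : ∏ m, (d m : F) = 1 := by
      rw [Fintype.prod_eq_mul k l (Ne.symm hlk) (fun m hm => by simp [hd, hm.1, hm.2])]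
      simp [hd, Ne.symm hlk]
    obtain ⟨π, e, he⟩ := exists_monGL_of_isMono (hconj d hprod fun m hm => by
      simp [hd, show m ≠ k from fun h => hm (h ▸ hk), show m ≠ l from fun h => hm (h ▸ hl)])
    have hpoly : ∀ m, ((d m : F) - 1) * ((d m : F) - μ) * ((d m : F) - μ⁻¹) = 0 := by
      intro m
      by_cases h1 : m = l
      · subst h1; simp [hd, hμ]
      · by_cases h2 : m = k
        · subst h2; simp [hd, h1, hμ]
        · simp [hd, h1, h2]
    have hπ1 : ∀ m, π m = m := by
      intro m
      by_contra hm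
      set σ := 1 + μ + μ⁻¹ with hσ
      have hD : (monGL 1 d : Matrix ι ι F) * ((monGL 1 d : Matrix ι ι F) * (monGL 1 d : Matrix ι ι F))
          - σ • ((monGL 1 d : Matrix ι ι F) * (monGL 1 d : Matrix ι ι F))
          + σ • (monGL 1 d : Matrix ι ι F) - 1 = 0 := by
        simp only [monGL_coe, one_monMat_apply, Matrix.diagonal_mul_diagonal]
        ext r s
        by_cases hrs : r = s
        · subst hrs
          have := hpoly r
          have hμ0 : μ ≠ 0 := Units.ne_zero u
          simp [hσ]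
          field_simp
          field_simp at this
          linear_combination this
        · simp [hrs]
      have hY := congrArg (fun A => ((g⁻¹ : GL ι F) : Matrix ι ι F) * A * (g : Matrix ι ι F)) hD
      have hconjmul : ∀ A B : Matrix ι ι F, ((g⁻¹ : GL ι F) : Matrix ι ι F) * (A * B) * (g : Matrix ι ι F) =
          (((g⁻¹ : GL ι F) : Matrix ι ι F) * A * (g : Matrix ι ι F)) *
            (((g⁻¹ : GL ι F) : Matrix ι ι F) * B * (g : Matrix ι ι F)) := by
        intro A B
        rw [Matrix.mul_assoc _ (g : Matrix ι ι F), Matrix.mul_assoc _ _ (g : Matrix ι ι F),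
          Matrix.mul_assoc _ B, ← Matrix.mul_assoc (g : Matrix ι ι F), ← Matrix.mul_assoc (g : Matrix ι ι F),
          ← Units.val_mul, mul_inv_cancel, Units.val_one, Matrix.one_mul, Matrix.mul_assoc]
      have hy' : ((g⁻¹ : GL ι F) : Matrix ι ι F) * (monGL 1 d : Matrix ι ι F) * (g : Matrix ι ι F) =
          monMat π fun r => (e r : F) := by
        rw [← Units.val_mul, ← Units.val_mul, he, monGL_coe]
      simp only [Matrix.mul_sub, Matrix.sub_mul, Matrix.mul_add, Matrix.add_mul, Matrix.mul_smul,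
        Matrix.smul_mul, Matrix.mul_zero, Matrix.zero_mul, hconjmul, hy'] at hY
      rw [Matrix.mul_one, ← Units.val_mul, inv_mul_cancel, Units.val_one, monMat_mul, monMat_mul] at hY
      have hcoef : ∀ r : ι, ((if r = π (π (π m)) then (e (π (π m)) : F) * ((e (π m) : F) * (e m : F)) else 0)
          - σ * (if r = π (π m) then (e (π m) : F) * (e m : F) else 0)
          + if r = π m then σ * (e m : F) else 0) - (if r = m then 1 else 0) = 0 := by
        intro r
        have := congrFun (congrFun hY r) m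
        simp [monMat, Equiv.Perm.mul_apply, Matrix.one_apply] at this
        exact this
      have he0 : ∀ r, (e r : F) ≠ 0 := fun r => Units.ne_zero _
      have hm2 : π (π m) ≠ π m := fun h => hm (π.injective h)
      by_cases h2 : π (π m) = m
      · have a1 := hcoef m
        have a2 := hcoef (π m)
        simp [h2, Ne.symm hm, hm] at a1 a2
        set em := (e m : F)
        set ep := (e (π m) : F)
        have a2' : ep * em + σ = 0 := by
          apply mul_left_cancel₀ (he0 m)
          linear_combination a2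
        have hs : σ * σ = 1 := by linear_combination σ * a2' + a1
        have hμ0 : μ ≠ 0 := Units.ne_zero u
        rcases mul_self_eq_one_iff.mp hs with h1 | h1
        · refine hpow 4 (by omega) le_rfl ?_
          rw [hσ] at h1
          field_simp at h1
          linear_combination (μ ^ 2 - 1) * h1
        · refine hpow 2 (by omega) (by omega) ?_
          rw [hσ] at h1
          field_simp at h1
          have : (μ + 1) * (μ + 1) = 0 := by linear_combination h1
          have h5 := (mul_self_eq_zero.mp this)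
          linear_combination (μ - 1) * h5
      · by_cases h3 : π (π (π m)) = m
        · have a2 := hcoef (π m)
          simp [h3, hm, Ne.symm hm2] at a2
          rw [hσ] at a2
          have hμ0 : μ ≠ 0 := Units.ne_zero u
          refine hpow 3 (by omega) (by omega) ?_
          field_simp at a2
          linear_combination (μ - 1) * a2
        · have := hcoef m
          simp [Ne.symm h2, Ne.symm h3, Ne.symm hm] at this
    refine hsingle fun r hr => hdiag d π e he i (hπ1 i) r ?_
    rw [← heig d π e he (hπ1 i)]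
    by_cases h1 : r = l
    · subst h1
      simp [hd, Ne.symm hlk]
      intro h
      refine hpow 2 (by omega) (by omega) ?_
      field_simp at h
      linear_combination (-1 : F) * h
    · simp [hd, h1, hr, Ne.symm hlk]
      intro h
      exact hpow 1 (by omega) (by omega) (by rw [pow_one]; exact h.symm ▸ rfl)
  · -- five scalars
    have hq5 : Fintype.card F = 5 := by
      rcases (by omega : Fintype.card F = 5 ∨ Fintype.card F = 6) with h5 | h6
      · exact h5
      · have hpp := FiniteField.isPrimePow_card F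
        rw [h6] at hpp
        exact absurd hpp (by
          rw [isPrimePow_nat_iff_bounded]
          decide)
    obtain ⟨i', k', l', h⟩ := short_five_two hq5 hn hM hno hg hZ hz
    refine hno (short_five_three hq5 hn hM hg hgm (p := i') (Z := ({k', l'} : Finset ι)ᶜ) ?_ fun r hr => h r ?_)
    · rw [Finset.card_compl]
      have : ({k', l'} : Finset ι).card ≤ 2 := Finset.card_le_two
      omega
    · simpa using hr

/-- A group containing the determinant-one monomial matrices and a non-monomial one has a root element. -/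
theorem root_of_nonmonomial₆ [Fintype F] (hq : 5 ≤ Fintype.card F) (hn : 6 ≤ Fintype.card ι)
    (hM : ContainsMon M) {g : GL ι F} (hg : g ∈ M) (hgm : ¬ IsMono (g : Matrix ι ι F)) : HasRoot M := by
  classical
  by_contra hno
  have hn5 : 5 ≤ Fintype.card ι := by omega
  have hgm' := hgm
  simp only [IsMono, not_forall] at hgm'
  obtain ⟨k, a₀, b₀, ha₀, hb₀, hab₀⟩ := hgm'
  set X := Finset.univ.filter fun l => (g : Matrix ι ι F) l k ≠ 0 with hX
  by_cases hX5 : X.card ≤ 3
  · refine hno (root_of_short_col₆ hq hn5 hM hg hgm (p := k) (Z := Xᶜ) ?_ fun l hl => ?_)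
    · rw [Finset.card_compl]; omega
    · simpa [hX] using hl
  obtain ⟨T₁, hT₁s, hT₁⟩ := Finset.exists_subset_card_eq (s := X) (n := 3) (by omega)
  obtain ⟨a, b, c, hab, hac, hbc, rfl⟩ := Finset.card_eq_three.mp hT₁
  simp [Finset.insert_subset_iff, hX] at hT₁s
  obtain ⟨S, hSc, hkS, hS⟩ := triple_image₃ hq hn5 hM hno hg hab hac hbc hT₁s.1 hT₁s.2.1 hT₁s.2.2
  -- weights with product one summing to three
  obtain ⟨la, lb, lc, hs, hp, hne⟩ :
      ∃ la lb lc : Fˣ, (la : F) + lb + lc = 3 ∧ (la : F) * lb * lc = 1 ∧ (la : F) ≠ 1 := by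
    obtain ⟨s, s0, s1, s2⟩ : ∃ s : F, s ≠ 0 ∧ 1 + s ≠ 0 ∧ 1 + s + s ^ 2 ≠ 0 := by
      by_contra hc
      simp only [not_exists, not_and, not_not] at hc
      have hroot : ∀ s : F, s ∈ (Polynomial.X * (1 + Polynomial.X) *
          (1 + Polynomial.X + Polynomial.X ^ 2) : Polynomial F).roots.toFinset := by
        intro s
        have hne : (Polynomial.X * (1 + Polynomial.X) *
            (1 + Polynomial.X + Polynomial.X ^ 2) : Polynomial F) ≠ 0 := by
          intro h
          have := congrArg (fun P => Polynomial.coeff P 1) h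
          simp [Polynomial.coeff_zero, Polynomial.coeff_X_mul, mul_assoc, Polynomial.mul_coeff_zero] at this
        rw [Multiset.mem_toFinset, Polynomial.mem_roots hne]
        simp only [Polynomial.IsRoot, Polynomial.eval_mul, Polynomial.eval_add, Polynomial.eval_one,
          Polynomial.eval_pow, Polynomial.eval_X]
        by_cases e0 : s = 0
        · simp [e0]
        by_cases e1 : 1 + s = 0
        · simp [e1]
        simp [hc s e0 e1]
      have hle : Fintype.card F ≤ 4 := by
        rw [← Finset.card_univ]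
        refine (Finset.card_le_card fun s _ => hroot s).trans ((Multiset.toFinset_card_le _).trans
          ((Polynomial.card_roots' _).trans ?_))
        compute_degree
      omega
    refine ⟨Units.mk0 (-(1 / (s * (1 + s)))) (by simp [s0, s1]),
      Units.mk0 (-(s ^ 2 / (1 + s))) (by simp [s0, s1]),
      Units.mk0 ((1 + s) ^ 2 / s) (by simp [s0, s1]), ?_, ?_, ?_⟩
    · simp only [Units.val_mk0]; field_simp; ring
    · simp only [Units.val_mk0]; field_simp
    · simp only [Units.val_mk0]
      intro h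
      field_simp at h
      exact s2 (by linear_combination (-1 : F) * h)
  set d : ι → Fˣ := fun l => if l = a then la else if l = b then lb else if l = c then lc else 1 with hd
  have hprod : ∏ l, (d l : F) = 1 := by
    rw [← Finset.prod_subset (Finset.subset_univ ({a, b, c} : Finset ι))
      (fun l _ hl => by simp at hl; simp [hd, hl]), Finset.prod_insert (by simp [hab, hac]),
      Finset.prod_pair hbc]
    simp [hd, hab.symm, hac.symm, hbc.symm]
    linear_combination hp
  have hdM : monGL 1 d ∈ M := hM _ _ (by simp [hprod])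
  set h := g⁻¹ * monGL 1 d * g with hh
  have hhM : h ∈ M := M.mul_mem (M.mul_mem (M.inv_mem hg) hdM) hg
  set x := fun l => (g : Matrix ι ι F) l k with hx
  set va := (Pi.single a (((la : F) - 1) * x a) + Pi.single b (((lb : F) - 1) * x b) +
    Pi.single c (((lc : F) - 1) * x c) : ι → F) with hva
  have hdx : (monGL 1 d : Matrix ι ι F) *ᵥ x = x + va := by
    ext l
    rw [monGL_coe, one_monMat_apply, mulVec_diagonal]
    simp only [hva, Pi.add_apply, Pi.single_apply, hd]
    by_cases h1 : l = a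
    · subst h1; simp [hab, hac]; ring
    by_cases h2 : l = b
    · subst h2; simp [h1, hbc]; ring
    by_cases h3 : l = c
    · subst h3; simp [h1, h2]; ring
    simp [h1, h2, h3]
  have hA : ∀ l, l ∉ S → (((g⁻¹ : GL ι F) : Matrix ι ι F) *ᵥ va) l = 0 :=
    hS _ _ _ (by linear_combination hs)
  have hcol : ∀ l, (h : Matrix ι ι F) l k = (Pi.single k 1 : ι → F) l +
      (((g⁻¹ : GL ι F) : Matrix ι ι F) *ᵥ va) l := by
    intro l
    have hxk : (g : Matrix ι ι F) *ᵥ Pi.single k 1 = x := by rw [mulVec_single_one]; rfl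
    have : (h : Matrix ι ι F) *ᵥ Pi.single k 1 = Pi.single k 1 +
        ((g⁻¹ : GL ι F) : Matrix ι ι F) *ᵥ va := by
      rw [hh, Units.val_mul, Units.val_mul, ← mulVec_mulVec, ← mulVec_mulVec, hxk, hdx, mulVec_add,
        ← hxk, Cfsg.Agent.H98.gl_inv_mulVec]
    have := congrFun this l
    simpa using this
  have hkk : (h : Matrix ι ι F) k k = 1 := by rw [hcol, hA k hkS]; simp
  have hhm : ¬ IsMono (h : Matrix ι ι F) := by
    intro hmono
    have hne0 : va ≠ 0 := by
      intro hz
      have := congrFun hz a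
      simp [hva, hab, hac, sub_ne_zero.mpr hne, hT₁s.1, hx] at this
    have hinj : ((g⁻¹ : GL ι F) : Matrix ι ι F) *ᵥ va ≠ 0 := fun hz =>
      hne0 (Cfsg.Agent.H98.gl_mulVec_injective g⁻¹ (hz.trans (mulVec_zero _).symm))
    obtain ⟨l, hl⟩ := Function.ne_iff.mp hinj
    have hlk : l ≠ k := by
      intro he; subst he
      rw [hA l hkS] at hl; simp at hl
    have := hmono k l k (by rw [hcol, Pi.single_eq_of_ne hlk, zero_add]; exact hl) (by rw [hkk]; exact one_ne_zero)
    exact hlk this
  refine hno (root_of_short_col₆ hq hn5 hM hhM hhm (p := k) (Z := (insert k S)ᶜ) ?_ fun l hl => ?_)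
  · rw [Finset.card_compl]
    have := Finset.card_insert_le k S
    omega
  · simp at hl
    rw [hcol, Pi.single_eq_of_ne hl.1, zero_add, hA l hl.2]

variable {t m : ℕ}

/-- The coordinate version: adjoining an element to the block stabiliser gives `SL`. -/
theorem sl_le_of_not_blockLike₆ [Fintype F] (e : ι ≃ Fin t × Fin m) (hn : 6 ≤ Fintype.card ι)
    (h1 : m = 1 → 5 ≤ Fintype.card F) (h2 : m = 2 → 3 ≤ Fintype.card F) {M : Subgroup (GL ι F)}
    (hM : ContainsBlock (fun i => (e i).1) M) {g : GL ι F} (hg : g ∈ M)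
    (hgB : ¬ BlockLike (fun i => (e i).1) (g : Matrix ι ι F)) : Cfsg.Geo.specialLinear ι F ≤ M := by
  classical
  have hcard : Fintype.card ι = t * m := by simpa using Fintype.card_congr e
  suffices h : ∃ i j, (e i).1 ≠ (e j).1 ∧ ∃ c : F, c ≠ 0 ∧ Has M (Pi.single i c) (Pi.single j 1) by
    obtain ⟨i, j, hij, c, hc, h⟩ := h
    exact sl_le_of_roots (roots_of_cross e (by omega) hM hij hc h)
  have hm0 : m ≠ 0 := by rintro rfl; rw [mul_zero] at hcard; omega
  by_cases hm : m = 1
  · subst hm
    have hinj : Function.Injective fun i => (e i).1 := fun a b hab =>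
      e.injective (Prod.ext hab (Subsingleton.elim _ _))
    have hMon : ContainsMon M := fun π d hd => mon_mem hM π (fun x => (e (π (e.symm (x, 0)))).1)
      (fun i => by
        rw [show ((e i).1, (0 : Fin 1)) = e i from Prod.ext rfl (Subsingleton.elim _ _), e.symm_apply_apply]) d hd
    have hgm : ¬ IsMono (g : Matrix ι ι F) := by
      intro hmono
      obtain ⟨π, d, hgd⟩ := exists_monGL_of_isMono hmono
      refine hgB ⟨fun x => (e (π (e.symm (x, 0)))).1, fun k i hk => ?_⟩
      rw [hgd] at hk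
      simp [monMat] at hk
      dsimp only
      rw [hk, show ((e i).1, (0 : Fin 1)) = e i from Prod.ext rfl (Subsingleton.elim _ _), e.symm_apply_apply]
    obtain ⟨i, j, hij, h⟩ := root_of_nonmonomial₆ (h1 rfl) hn hMon hg hgm
    exact ⟨i, j, fun he => hij (hinj he), h⟩
  · have h2le : 2 ≤ m := by omega
    have htwo : TwoInBlocks (fun i => (e i).1) := by
      intro k
      obtain ⟨x, hx⟩ : ∃ x : Fin m, x ≠ (e k).2 :=
        Fintype.exists_ne_of_one_lt_card (by rw [Fintype.card_fin]; omega) _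
      exact ⟨e.symm ((e k).1, x), fun he => hx (by rw [← he]; simp), by simp⟩
    obtain ⟨i, j, hij, h⟩ := exists_cross hM htwo (by
      by_cases hm2 : m = 2
      · refine Or.inl ⟨h2 hm2, fun a b => ?_⟩
        subst hm2
        obtain ⟨d, -, hd⟩ := Finset.exists_mem_notMem_of_card_lt_card (s := ({a, b} : Finset (Fin t)))
          (t := Finset.univ) (lt_of_le_of_lt Finset.card_le_two (by rw [Finset.card_univ, Fintype.card_fin]; omega))
        simp at hd
        exact ⟨d, hd.1, hd.2, e.symm (d, 0), by simp⟩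
      · right
        intro k
        obtain ⟨x, hx⟩ : ∃ x : Fin m, x ≠ (e k).2 :=
          Fintype.exists_ne_of_one_lt_card (by rw [Fintype.card_fin]; omega) _
        obtain ⟨y, -, hy⟩ := Finset.exists_mem_notMem_of_card_lt_card (s := ({x, (e k).2} : Finset (Fin m)))
          (t := Finset.univ) (lt_of_le_of_lt Finset.card_le_two (by rw [Finset.card_univ, Fintype.card_fin]; omega))
        simp at hy
        refine ⟨e.symm ((e k).1, x), e.symm ((e k).1, y), fun he => hx (by rw [← he]; simp),
          fun he => hy.2 (by rw [← he]; simp), fun he => hy.1 ?_, by simp, by simp⟩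
        simpa using (e.symm.injective he).symm) hg hgB
    exact ⟨i, j, hij, 1, one_ne_zero, h⟩

/-- The stabiliser of a decomposition is maximal in `SL`. -/
theorem decomposition_maximal₆ [Fintype F] {n : ℕ} (hn : 6 ≤ n) (D : Fin t → Submodule F (Fin n → F))
    (hD : Cfsg.Geo.IsMDecomposition m D) (h1 : m = 1 → 5 ≤ Fintype.card F) (h2 : m = 2 → 3 ≤ Fintype.card F) :
    Cfsg.Geo.IsMaximalIn (Cfsg.Geo.specialLinear (Fin n) F)
      (Cfsg.Geo.decompositionStabilizer D ⊓ Cfsg.Geo.specialLinear (Fin n) F) := by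
  classical
  refine Cfsg.Agent.H98.isMaximalIn_of inf_le_right ?_ fun M hHM hMS g hg hgH => ?_
  · -- a transvection outside
    let a : Fin t := ⟨0, by have := hD.two_le; omega⟩
    let b : Fin t := ⟨1, by have := hD.two_le; omega⟩
    have hab : a ≠ b := by simp [a, b]
    have hne : ∀ c, D c ≠ ⊥ := fun c h => by
      have := hD.finrank_eq c
      rw [h, finrank_bot] at this
      exact hD.pos.ne this
    obtain ⟨w, hw, hw0⟩ := Submodule.exists_mem_ne_zero_of_ne_bot (hne a)
    obtain ⟨u, hu, hu0⟩ := Submodule.exists_mem_ne_zero_of_ne_bot (hne b)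
    have hnot : w ∉ Submodule.span F {u} := by
      intro h
      have hle : Submodule.span F {u} ≤ D b := (Submodule.span_singleton_le_iff_mem _ _).mpr hu
      exact hw0 (Submodule.disjoint_def.mp (hD.indep.pairwiseDisjoint hab) w hw (hle h))
    obtain ⟨φ, hφ, hk⟩ := Cfsg.Agent.H98.exists_functional hnot
    have hφu : φ u = 0 := LinearMap.mem_ker.mp (hk (Submodule.mem_span_singleton_self u))
    refine ⟨Cfsg.Agent.H98.transGL φ u hφu, Cfsg.Agent.H98.transGL_mem_sl φ u hφu, fun h =>
      Cfsg.Agent.H98.not_stab_of_spread hD hw hab ?_ ?_ h.1⟩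
    · rw [Cfsg.Agent.H98.transGL_mulVec, hφ, one_smul, map_add, Cfsg.Agent.H98.comp_same hD hw,
        Cfsg.Agent.H98.comp_other hD hab.symm hu, add_zero]
      exact hw0
    · rw [Cfsg.Agent.H98.transGL_mulVec, hφ, one_smul, map_add, Cfsg.Agent.H98.comp_other hD hab hw,
        Cfsg.Agent.H98.comp_same hD hu, zero_add]
      exact hu0
  obtain ⟨e, P, hP⟩ := exists_adapted hD
  have hdet : ∀ x : GL (Fin n) F, ((P * x * P⁻¹ : GL (Fin n) F) : Matrix (Fin n) (Fin n) F).det =
      (x : Matrix (Fin n) (Fin n) F).det := by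
    intro x
    rw [Units.val_mul, Units.val_mul, det_mul, det_mul, mul_right_comm, ← det_mul, ← Units.val_mul,
      mul_inv_cancel, Units.val_one, det_one, one_mul]
  let M' : Subgroup (GL (Fin n) F) := M.comap (MulAut.conj P).toMonoidHom
  have hmem : ∀ x, x ∈ M' ↔ P * x * P⁻¹ ∈ M := fun x => Iff.rfl
  have hSL : ∀ x : GL (Fin n) F, x ∈ Cfsg.Geo.specialLinear (Fin n) F ↔
      (x : Matrix (Fin n) (Fin n) F).det = 1 := by
    intro x
    rw [Cfsg.Geo.specialLinear, MonoidHom.mem_ker, ← Units.val_inj]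
    rfl
  have hM' : ContainsBlock (fun i => (e i).1) M' := fun x hx hxB =>
    hHM ⟨conj_mem_stab_iff hD hP hxB, (hSL _).mpr (by
      change ((P * x * P⁻¹ : GL (Fin n) F) : Matrix (Fin n) (Fin n) F).det = 1
      rw [hdet]; exact hx)⟩
  have hg' : P⁻¹ * g * P ∈ M' := by
    rw [hmem, show P * (P⁻¹ * g * P) * P⁻¹ = g by group]; exact hg
  have hgB : ¬ BlockLike (fun i => (e i).1) ((P⁻¹ * g * P : GL (Fin n) F) : Matrix (Fin n) (Fin n) F) := by
    intro h
    have := conj_mem_stab_iff hD hP h
    rw [show P * (P⁻¹ * g * P) * P⁻¹ = g by group] at this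
    exact hgH ⟨this, hMS hg⟩
  have hle := sl_le_of_not_blockLike₆ e (by rw [Fintype.card_fin]; exact hn) h1 h2 hM' hg' hgB
  intro x hx
  have hdx : (P⁻¹ * x * P) ∈ Cfsg.Geo.specialLinear (Fin n) F := by
    rw [hSL, ← hdet, show P * (P⁻¹ * x * P) * P⁻¹ = x by group]; exact (hSL x).mp hx
  have := (hmem _).mp (hle hdx)
  rwa [show P * (P⁻¹ * x * P) * P⁻¹ = x by group] at this

end Cfsg.Agent.H50.LowDim
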