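import Cfsg.Agent.H98.MaximalSLSubfield
import Cfsg.Agent.H1.DicksonPrimeSL
import Cfsg.Agent.H1.SLTwoElements

set_option autoImplicit false
set_option linter.unusedSectionVars false
set_option linter.style.haveILetI false

/-!
The subfield subgroup is maximal in the special linear group in dimension at least four: in odd
characteristic two opposite transvections generate the negative of a plane.
-/

namespace Cfsg.Agent.H50.LowDim

open Matrix MatrixGroups Cfsg.Agent.H98

variable {ι : Type} [Fintype ι] [DecidableEq ι] {F : Type*} [Field F]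

/-- Two opposite unipotent elements of `SL₂` generate a subgroup containing `-1`. -/
theorem neg_one_mem_of_opposite [Finite F] (h2 : (2 : F) ≠ 0) {a b : F} (ha : a ≠ 0) (hb : b ≠ 0)
    (u v : SL(2, F)) (hu : (u : Matrix (Fin 2) (Fin 2) F) = !![1, a; 0, 1])
    (hv : (v : Matrix (Fin 2) (Fin 2) F) = !![1, 0; b, 1]) :
    (-1 : SL(2, F)) ∈ Subgroup.closure ({u, v} : Set SL(2, F)) := by
  haveI := Fintype.ofFinite F
  obtain ⟨p, hpc⟩ := CharP.exists F
  haveI : Fact p.Prime := ⟨CharP.char_is_prime F p⟩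
  have hp2 : p ≠ 2 := fun e => h2 (by subst e; exact_mod_cast CharP.cast_eq_zero F 2)
  have hup : u ^ p = 1 := Cfsg.Agent.H6.pow_char_of_tr_two p (by simp [Cfsg.Agent.H6.tr, hu]; norm_num)
  have hvp : v ^ p = 1 := Cfsg.Agent.H6.pow_char_of_tr_two p (by simp [Cfsg.Agent.H6.tr, hv]; norm_num)
  set H := Subgroup.closure ({u, v} : Set SL(2, F)) with hH
  have huH : u ∈ H := Subgroup.subset_closure (by simp)
  have hvH : v ∈ H := Subgroup.subset_closure (by simp)
  haveI : Finite H := Finite.of_injective _ Subtype.val_injective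
  have hS : 1 < Nat.card (Sylow p H) := by
    by_contra hle
    have hsub : Subsingleton (Sylow p H) :=
      Finite.card_le_one_iff_subsingleton.mp (not_lt.mp hle)
    obtain ⟨P⟩ := (inferInstance : Nonempty (Sylow p H))
    have hin : ∀ x : H, x ^ p = 1 → x ∈ (P : Subgroup H) := by
      intro x hx
      have hz : IsPGroup p (Subgroup.zpowers x) := by
        rintro ⟨y, k, rfl⟩
        refine ⟨1, Subtype.ext ?_⟩
        simp only [pow_one, SubgroupClass.coe_pow, OneMemClass.coe_one]
        rw [← zpow_natCast, ← _root_.zpow_mul, mul_comm, _root_.zpow_mul, zpow_natCast, hx, _root_.one_zpow]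
      obtain ⟨Q, hQ⟩ := hz.exists_le_sylow
      rw [hsub.elim P Q]
      exact hQ (Subgroup.mem_zpowers x)
    have hm := mul_mem (hin ⟨u, huH⟩ (Subtype.ext hup)) (hin ⟨v, hvH⟩ (Subtype.ext hvp))
    obtain ⟨k, hk⟩ := P.isPGroup' ⟨_, hm⟩
    have hk' : (u * v) ^ p ^ k = 1 := congrArg (fun t : (P : Subgroup H) => ((t : H) : SL(2, F))) hk
    have h1 := congrArg SpecialLinearGroup.coeMonoidHom hk'
    rw [map_pow, map_one, SpecialLinearGroup.coeMonoidHom_apply] at h1
    have hM : (((u * v : SL(2, F)) : Matrix (Fin 2) (Fin 2) F) - 1) ^ p ^ k = 0 := by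
      rw [sub_pow_char_pow_of_commute _ _ (Commute.one_right _), h1, one_pow, sub_self]
    have hdet := congrArg Matrix.det hM
    rw [Matrix.det_pow, Matrix.det_zero, pow_eq_zero_iff (pow_ne_zero _ (Fact.out : p.Prime).ne_zero),
      Matrix.det_fin_two] at hdet
    simp [hu, hv] at hdet
    rcases hdet with h | h
    · exact ha h
    · exact hb h
  obtain ⟨K, hKH, ⟨e⟩⟩ := Cfsg.Agent.H1.exists_subgroup_equiv_SL2_prime p hp2 H hS
  have h2p : (2 : ZMod p) ≠ 0 := fun h => by
    have h' : ((2 : ℕ) : ZMod p) = 0 := by exact_mod_cast h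
    rw [CharP.cast_eq_zero_iff (ZMod p) p] at h'
    exact hp2 ((Nat.prime_dvd_prime_iff_eq Fact.out Nat.prime_two).1 h')
  set z := e.symm (-1) with hz
  have hzz : (z : SL(2, F)) * z = 1 := by
    have : z * z = 1 := by rw [hz, ← map_mul]; simp
    exact congrArg Subtype.val this
  have hz1 : (z : SL(2, F)) ≠ 1 := by
    intro h
    have h' : z = 1 := Subtype.ext h
    rw [hz, MulEquiv.map_eq_one_iff] at h'
    have := congrArg (fun t : SL(2, ZMod p) => (t : Matrix (Fin 2) (Fin 2) (ZMod p)) 0 0) h'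
    simp at this
    exact h2p (by linear_combination -this)
  have : (z : SL(2, F)) = -1 := Cfsg.Agent.H1.SL_ext_coe (by
    rw [Cfsg.Agent.H1.SL2_involution_eq_neg_one h2 _ hz1 hzz]; simp)
  exact this ▸ hKH z.2

/-- Opposite transvections in a group give an involution negating a plane. -/
theorem exists_plane_neg [Finite F] (h2 : (2 : F) ≠ 0) {M : Subgroup (GL ι F)} {a b : ι} (hab : a ≠ b)
    (φ : (ι → F) →ₗ[F] F) (A : ι → F) (hφA : φ A = 0) (hφ : φ (Pi.single a 1) ≠ 0) (hA : A b ≠ 0)
    (ht : elm hab (1 : F) ∈ M) {j : GL ι F} (hjM : j ∈ M) (hj : ∀ v, (j : Matrix ι ι F) *ᵥ v = v + φ v • A) :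
    ∃ z ∈ M, z ≠ 1 ∧ z * z = 1 ∧ ((z : Matrix ι ι F) - 1).rank ≤ 2 ∧
      (z : Matrix ι ι F) * (elm hab (1 : F) : Matrix ι ι F) = (elm hab (1 : F) : Matrix ι ι F) * (z : Matrix ι ι F) ∧
      (z : Matrix ι ι F) * (j : Matrix ι ι F) = (j : Matrix ι ι F) * (z : Matrix ι ι F) := by
  classical
  let C : Matrix ι (Fin 2) F := Matrix.of fun x => ![(Pi.single a 1 : ι → F) x, A x]
  let R : Matrix (Fin 2) ι F := Matrix.of ![fun x => φ (Pi.single x 1) / φ (Pi.single a 1),
    fun x => (if x = b then (A b)⁻¹ else 0)]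
  have hRC : R * C = 1 := by
    ext i k
    have hsum : ∀ w : ι → F, ∑ x, φ (Pi.single x 1) / φ (Pi.single a 1) * w x = φ w / φ (Pi.single a 1) := by
      intro w
      conv_rhs => rw [pi_eq_sum_univ' w]
      rw [map_sum, Finset.sum_div]
      refine Finset.sum_congr rfl fun x _ => ?_
      rw [map_smul, smul_eq_mul]; ring
    fin_cases i <;> fin_cases k <;> simp only [Matrix.mul_apply, R, C, Matrix.of_apply] <;>
      simp [hsum, hφ, hφA, hA, Ne.symm hab]
  let T : Matrix (Fin 2) (Fin 2) F →* Matrix ι ι F :=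
    { toFun := fun m => 1 + C * (m - 1) * R
      map_one' := by simp
      map_mul' := fun m m' => by
        have : C * (m - 1) * R * (C * (m' - 1) * R) = C * ((m - 1) * (m' - 1)) * R := by
          simp only [Matrix.mul_assoc]
          rw [← Matrix.mul_assoc R C, hRC, Matrix.one_mul]
        rw [Matrix.mul_add, Matrix.add_mul, Matrix.add_mul, Matrix.one_mul, Matrix.mul_one, Matrix.one_mul, this,
          show m * m' - 1 = (m - 1) + (m' - 1) + (m - 1) * (m' - 1) by noncomm_ring]
        simp only [Matrix.mul_add, Matrix.add_mul]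
        abel }
  let U : SL(2, F) →* GL ι F := (Units.map T).comp SpecialLinearGroup.toGL
  have hU : ∀ m : SL(2, F), (U m : Matrix ι ι F) = 1 + C * ((m : Matrix (Fin 2) (Fin 2) F) - 1) * R := fun m => rfl
  set s := φ (Pi.single a 1) with hs
  let u : SL(2, F) := ⟨!![1, A b; 0, 1], by simp [Matrix.det_fin_two]⟩
  let v : SL(2, F) := ⟨!![1, 0; s, 1], by simp [Matrix.det_fin_two]⟩
  have hUu : U u = elm hab (1 : F) := by
    refine Units.ext (Matrix.ext fun x y => ?_)
    rw [hU, elm_apply, Matrix.add_apply]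
    simp only [Matrix.mul_apply, Fin.sum_univ_two, C, R, u, Matrix.of_apply, Matrix.sub_apply]
    by_cases hx : x = a <;> by_cases hy : y = b <;> simp [hx, hy, hA]
  have hUv : U v = j := by
    refine Cfsg.Agent.H98.gl_ext fun w => funext fun x => ?_
    rw [hj, hU, Matrix.add_mulVec, Matrix.one_mulVec, Pi.add_apply, Pi.add_apply, Pi.smul_apply]
    congr 1
    simp only [Matrix.mulVec, dotProduct, Matrix.mul_apply, Fin.sum_univ_two, C, R, v, Matrix.of_apply,
      Matrix.sub_apply, smul_eq_mul]
    conv_rhs => rw [pi_eq_sum_univ' w]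
    rw [map_sum, Finset.sum_mul]
    refine Finset.sum_congr rfl fun y _ => ?_
    rw [map_smul, smul_eq_mul]
    simp [← hs]
    field_simp
  have hmem : U (-1) ∈ M := by
    have hle : Subgroup.closure ({u, v} : Set SL(2, F)) ≤ M.comap U := by
      rw [Subgroup.closure_le]
      rintro x (rfl | rfl)
      · simpa [hUu] using ht
      · change U v ∈ M
        rw [hUv]; exact hjM
    exact hle (neg_one_mem_of_opposite h2 hA hφ u v rfl rfl)
  have hcom : ∀ m : SL(2, F), U (-1) * U m = U m * U (-1) := fun m => by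
    rw [← map_mul, ← map_mul]; simp
  refine ⟨U (-1), hmem, fun h => ?_, by rw [← map_mul]; simp, ?_, ?_, ?_⟩
  · have h' := congrArg (fun z : GL ι F => R * ((z : Matrix ι ι F) - 1) * C) h
    simp only [hU, Units.val_one, sub_self, Matrix.mul_zero, Matrix.zero_mul, add_sub_cancel_left] at h'
    rw [← Matrix.mul_assoc, ← Matrix.mul_assoc, hRC, Matrix.one_mul, Matrix.mul_assoc, hRC, Matrix.mul_one] at h'
    have := congrFun (congrFun h' 0) 0
    simp at this
    exact h2 (by linear_combination -this)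
  · rw [hU, add_sub_cancel_left]
    refine (Matrix.rank_mul_le_left _ _).trans ((Matrix.rank_mul_le_left _ _).trans ?_)
    exact (Matrix.rank_le_card_width C).trans (by simp)
  · rw [← hUu, ← Units.val_mul, ← Units.val_mul, hcom]
  · rw [← hUv, ← Units.val_mul, ← Units.val_mul, hcom]

variable {F₀ : Subfield F}

/-- The subfield subgroup is maximal in the special linear group. -/
theorem sl_subfield_maximal₆ [Fintype F] {n : ℕ} (hn : 4 ≤ n) {r : ℕ} (hr : r.Prime)
    (hcard : Fintype.card F = Nat.card F₀ ^ r) :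
    Cfsg.Geo.IsMaximalIn (Cfsg.Geo.specialLinear (Fin n) F)
      (subGroupF (Fin n) F₀ ⊓ Cfsg.Geo.specialLinear (Fin n) F) := by
  classical
  haveI : Nonempty (Fin n) := ⟨⟨0, by omega⟩⟩
  have hn3 : 3 ≤ Fintype.card (Fin n) := by rw [Fintype.card_fin]; omega
  haveI := Fintype.ofFinite F₀
  set e0 : Fin n := ⟨0, by omega⟩
  set e1 : Fin n := ⟨1, by omega⟩
  set e2 : Fin n := ⟨2, by omega⟩
  set e3 : Fin n := ⟨3, by omega⟩
  have h01 : e0 ≠ e1 := by simp [e0, e1, Fin.ext_iff]
  have h02 : e0 ≠ e2 := by simp [e0, e2, Fin.ext_iff]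
  have h03 : e0 ≠ e3 := by simp [e0, e3, Fin.ext_iff]
  have h12 : e1 ≠ e2 := by simp [e1, e2, Fin.ext_iff]
  have h13 : e1 ≠ e3 := by simp [e1, e3, Fin.ext_iff]
  have h23 : e2 ≠ e3 := by simp [e2, e3, Fin.ext_iff]
  have hstrict : ∃ x ∈ Cfsg.Geo.specialLinear (Fin n) F,
      x ∉ subGroupF (Fin n) F₀ ⊓ Cfsg.Geo.specialLinear (Fin n) F := by
    obtain ⟨c, hc⟩ : ∃ c : F, c ∉ F₀ := by
      by_contra hall; push Not at hall
      have h1 : Fintype.card F ≤ Fintype.card F₀ :=
        Fintype.card_le_of_injective (fun c => (⟨c, hall c⟩ : F₀)) fun a b h => congrArg Subtype.val h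
      rw [hcard, Nat.card_eq_fintype_card] at h1
      have h2 := Nat.pow_lt_pow_right (Fintype.one_lt_card (α := F₀)) hr.one_lt
      rw [pow_one] at h2; omega
    refine ⟨elm h01 c, elm_mem_sl _ _, fun h => hc ?_⟩
    obtain ⟨k, hk, hk'⟩ := mem_subGroupF.mp h.1
    have ha := hk' e0 e0
    have hb := hk' e0 e1
    simp only [elm_apply, Matrix.one_apply, h01, if_false, and_self, if_true, zero_add, and_false, add_zero,
      mul_one] at ha hb
    simpa [hk] using mul_mem (inv_mem ha) hb
  refine isMaximalIn_of inf_le_right hstrict fun M h1 h2 g hgM hgH => ?_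
  by_contra hcon
  have hM : IsProperOver F₀ M := ⟨h1, h2, hcon⟩
  have hgS : g ∉ subGroupF (Fin n) F₀ := fun h => hgH ⟨h, h2 hgM⟩
  obtain ⟨l, m, hlm, hj⟩ : ∃ (l m : Fin n) (hlm : l ≠ m), g * elm hlm (1 : F) * g⁻¹ ∉ subGroupF (Fin n) F₀ := by
    by_contra hall; push Not at hall
    exact hgS (mem_of_conj_elm hn3 hall)
  set j := g * elm hlm (1 : F) * g⁻¹ with hjdef
  have hjM : j ∈ M := M.mul_mem (M.mul_mem hgM (h1 (elm_mem_subGroupF _ (one_mem _)))) (M.inv_mem hgM)
  have hjv : ∀ v, (j : Matrix (Fin n) (Fin n) F) *ᵥ v =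
      v + (((g⁻¹ : GL (Fin n) F) : Matrix (Fin n) (Fin n) F) *ᵥ v) m • ((g : Matrix (Fin n) (Fin n) F) *ᵥ Pi.single l 1) :=
    fun v => by
      simp only [hjdef, Units.val_mul, ← Matrix.mulVec_mulVec, elm_mulVec, Matrix.mulVec_add,
        Matrix.mulVec_smul, gl_mulVec_inv, one_mul]
  have h3' : n ≤ r := by
    by_contra hrn
    push Not at hrn
    -- a rational vector killed by the functional
    let T : (Fin n → F₀) → F := fun a =>
      (((g⁻¹ : GL (Fin n) F) : Matrix (Fin n) (Fin n) F) *ᵥ fun b => (a b : F)) m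
    have hTni : ¬ Function.Injective T := fun hT => by
      have := Fintype.card_le_of_injective T hT
      rw [Fintype.card_fun, Fintype.card_fin, hcard, Nat.card_eq_fintype_card] at this
      exact absurd this (not_le.mpr (Nat.pow_lt_pow_right (Fintype.one_lt_card (α := F₀)) hrn))
    obtain ⟨a, a', haa, hne⟩ := Function.not_injective_iff.mp hTni
    set d : Fin n → F := fun b => (a b : F) - (a' b : F) with hd
    have hdm : (((g⁻¹ : GL (Fin n) F) : Matrix (Fin n) (Fin n) F) *ᵥ d) m = 0 := by
      have : d = (fun b => (a b : F)) - fun b => (a' b : F) := rfl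
      rw [this, Matrix.mulVec_sub, Pi.sub_apply, sub_eq_zero]
      exact haa
    let A : Matrix (Fin n) (Fin n) F := fun x b => if b = e0 then d x else 0
    have hAv : ∀ v, A *ᵥ v = v e0 • d := fun v => funext fun x => by
      simp [A, Matrix.mulVec, dotProduct, mul_comm]
    refine hj (rat_stab_mem hn3 hr hcard hM A (fun x b => ?_) (fun h => hne ?_) ?_ hjM ?_)
    · simp only [A]; split_ifs
      · exact sub_mem (a x).2 (a' x).2
      · exact zero_mem _
    · funext x
      have := congrFun (congrFun h x) e0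
      simp only [A, if_pos, Matrix.zero_apply, hd, sub_eq_zero] at this
      exact Subtype.ext this
    · have hle : LinearMap.range A.mulVecLin ≤ Submodule.span F {d} := by
        rintro _ ⟨v, rfl⟩
        rw [Matrix.mulVecLin_apply, hAv]
        exact Submodule.mem_span_singleton.mpr ⟨_, rfl⟩
      have h4 := (Submodule.finrank_mono hle).trans (finrank_span_le_card ({d} : Set (Fin n → F)))
      simp only [Set.toFinset_singleton, Finset.card_singleton] at h4
      rw [Fintype.card_fin]; omega
    · rintro _ ⟨v, rfl⟩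
      refine ⟨v, ?_⟩
      rw [Matrix.mulVecLin_apply, hAv, hjv, Matrix.mulVec_smul, Pi.smul_apply, hdm, smul_zero, zero_smul, add_zero]
  have hodd : Odd r := hr.odd_of_ne_two (by omega)
  by_cases h2c : (2 : F) = 0
  · -- even characteristic
    haveI : CharP F 2 := CharTwo.of_one_ne_zero_of_two_eq_zero one_ne_zero h2c
    haveI : Fact (Nat.Prime 2) := ⟨Nat.prime_two⟩
    have hsq : ∀ c : F, c * c ∈ F₀ → c ∈ F₀ := fun c hc => mem_subfield_of_pow_char 2 F₀ (by rwa [pow_two])
    have helm2 : ∀ {x y : Fin n} (h : x ≠ y), elm h (1 : F) * elm h 1 = 1 := fun h => by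
      rw [elm_mul, one_add_one_eq_two, h2c, elm_zero]
    set i := elm h01 (1 : F) * elm h23 1 with hidef
    have hiv : ∀ v, (i : Matrix (Fin n) (Fin n) F) *ᵥ v = v + v e1 • Pi.single e0 1 + v e3 • Pi.single e2 1 := fun v => by
      simp only [hidef, Units.val_mul, ← Matrix.mulVec_mulVec, elm_mulVec, Pi.add_apply, Pi.smul_apply,
        Pi.single_eq_of_ne h12, smul_zero, add_zero, one_mul]
      module
    have hiM : i ∈ M := M.mul_mem (h1 (elm_mem_subGroupF _ (one_mem _))) (h1 (elm_mem_subGroupF _ (one_mem _)))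
    have hii : i * i = 1 := gl_ext fun v => by
      rw [Units.val_mul, ← Matrix.mulVec_mulVec, hiv, hiv, Units.val_one, Matrix.one_mulVec]
      simp only [Pi.add_apply, Pi.smul_apply, Pi.single_eq_of_ne h01.symm, Pi.single_eq_of_ne h12,
        Pi.single_eq_of_ne h03.symm, Pi.single_eq_of_ne h23.symm, smul_zero, add_zero]
      have e : ∀ w : Fin n → F, w + w = 0 := fun w => by rw [← two_smul F, h2c, zero_smul]
      linear_combination (norm := module) e (v e1 • (Pi.single e0 1 : Fin n → F)) + e (v e3 • (Pi.single e2 1 : Fin n → F))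
    have hjj : j * j = 1 := by
      rw [hjdef]
      calc g * elm hlm (1 : F) * g⁻¹ * (g * elm hlm (1 : F) * g⁻¹) = g * (elm hlm (1 : F) * elm hlm 1) * g⁻¹ := by group
        _ = 1 := by rw [helm2]; simp
    rcases involution_pair hii hjj with hconj | ⟨k, hz1, hzz, hzi, hzj⟩
    · obtain ⟨c, hc⟩ := isConj_iff.mp hconj
      have hi' : i = c⁻¹ * j * c := by rw [← hc]; group
      set A := ((c⁻¹ : GL (Fin n) F) : Matrix (Fin n) (Fin n) F) *ᵥ ((g : Matrix (Fin n) (Fin n) F) *ᵥ Pi.single l 1)
      have hform : ∀ v, ∃ α : F, (i : Matrix (Fin n) (Fin n) F) *ᵥ v = v + α • A := fun v => by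
        rw [hi']
        simp only [Units.val_mul, ← Matrix.mulVec_mulVec, hjv, Matrix.mulVec_add, Matrix.mulVec_smul,
          gl_inv_mulVec]
        exact ⟨_, rfl⟩
      obtain ⟨α, hα⟩ := hform (Pi.single e1 1)
      obtain ⟨β, hβ⟩ := hform (Pi.single e3 1)
      rw [hiv] at hα hβ
      have a0 := congrFun hα e0
      have b0 := congrFun hβ e0
      have b2 := congrFun hβ e2
      simp only [Pi.add_apply, Pi.smul_apply, Pi.single_eq_same, Pi.single_eq_of_ne h01, Pi.single_eq_of_ne h03,
        Pi.single_eq_of_ne h02, Pi.single_eq_of_ne h02.symm, Pi.single_eq_of_ne h12.symm, Pi.single_eq_of_ne h23,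
        Pi.single_eq_of_ne h13, Pi.single_eq_of_ne h13.symm, smul_eq_mul, mul_zero, zero_mul, mul_one, zero_add, add_zero] at a0 b0 b2
      have hA0 : A e0 ≠ 0 := fun h => by rw [h, mul_zero] at a0; exact one_ne_zero a0
      rw [(mul_eq_zero.mp b0.symm).resolve_right hA0, zero_mul] at b2
      exact one_ne_zero b2
    · set z := (i * j) ^ k
      have hzM : z ∈ M := M.pow_mem (M.mul_mem hiM hjM) k
      have hrankA : ((i : Matrix (Fin n) (Fin n) F) - 1).rank + 2 ≤ Fintype.card (Fin n) := by
        have hle : LinearMap.range ((i : Matrix (Fin n) (Fin n) F) - 1).mulVecLin ≤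
            Submodule.span F {(Pi.single e0 1 : Fin n → F), Pi.single e2 1} := by
          rintro _ ⟨v, rfl⟩
          rw [Matrix.mulVecLin_apply, Matrix.sub_mulVec, Matrix.one_mulVec, hiv, Submodule.mem_span_pair]
          exact ⟨v e1, v e3, by module⟩
        have h4 := (Submodule.finrank_mono hle).trans (finrank_span_le_card _)
        have h5 : Set.toFinset ({(Pi.single e0 1 : Fin n → F), Pi.single e2 1}) ⊆
            {(Pi.single e0 1 : Fin n → F), Pi.single e2 1} := fun w => by simp
        have h6 := (Finset.card_le_card h5).trans Finset.card_le_two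
        unfold Matrix.rank
        rw [Fintype.card_fin]; omega
      have hrati : ∀ a b, ((i : Matrix (Fin n) (Fin n) F) - 1) a b ∈ F₀ := fun a b => by
        have h4 := congrFun (hiv (Pi.single b 1)) a
        rw [Matrix.mulVec_single_one, Matrix.col_apply] at h4
        rw [Matrix.sub_apply, h4]
        have hs : ∀ u w : Fin n, (Pi.single u (1 : F) : Fin n → F) w ∈ F₀ := fun u w => by
          rw [Pi.single_apply]; split_ifs <;> first | exact one_mem _ | exact zero_mem _
        have h5 : (1 : Matrix (Fin n) (Fin n) F) a b ∈ F₀ := by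
          rw [Matrix.one_apply]; split_ifs <;> first | exact one_mem _ | exact zero_mem _
        simp only [Pi.add_apply, Pi.smul_apply, smul_eq_mul]
        exact sub_mem (add_mem (add_mem (hs _ _) (mul_mem (hs _ _) (hs _ _))) (mul_mem (hs _ _) (hs _ _))) h5
      have hine : (i : Matrix (Fin n) (Fin n) F) - 1 ≠ 0 := fun h => by
        have := congrFun (hiv (Pi.single e1 1)) e0
        rw [sub_eq_zero.mp h, Matrix.one_mulVec] at this
        simp [h01, h03, h02, h13.symm] at this
      have hzS : z ∈ subGroupF (Fin n) F₀ := mem_of_commute_rational hn3 hr hcard hM _ hrati hine hrankA hzM (by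
        rw [Matrix.mul_sub, Matrix.sub_mul, Matrix.mul_one, Matrix.one_mul, ← Units.val_mul, hzi, Units.val_mul])
      have hzne : (z : Matrix (Fin n) (Fin n) F) - 1 ≠ 0 := fun h =>
        hz1 (Units.ext (by rw [Units.val_one]; exact sub_eq_zero.mp h))
      refine hj (mem_of_commute_rational hn3 hr hcard hM _ (fun a b => ?_) hzne ?_ hjM ?_)
      · rw [Matrix.sub_apply]
        refine sub_mem (rational_of_invol hsq hzz hzS a b) ?_
        rw [Matrix.one_apply]; split_ifs <;> first | exact one_mem _ | exact zero_mem _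
      · have h0 : ((z : Matrix (Fin n) (Fin n) F) - 1) * ((z : Matrix (Fin n) (Fin n) F) - 1) = 0 := by
          rw [Matrix.sub_mul, Matrix.mul_sub, Matrix.mul_sub, Matrix.one_mul, Matrix.one_mul, Matrix.mul_one,
            ← Units.val_mul, hzz, Units.val_one]
          have e : ∀ w : Matrix (Fin n) (Fin n) F, w + w = 0 := fun w => by rw [← two_smul F, h2c, zero_smul]
          linear_combination (norm := module) e (1 - (z : Matrix (Fin n) (Fin n) F))
        have := rank_add_rank_le h0
        rw [Fintype.card_fin] at this ⊢; omega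
      · rw [Matrix.mul_sub, Matrix.sub_mul, Matrix.mul_one, Matrix.one_mul, ← Units.val_mul, ← hzj, Units.val_mul]
  · -- odd characteristic
    have hoddq : Odd (Nat.card F₀) := by
      have h4 : ¬ Fintype.card F % 2 = 0 := fun h => h2c (by
        haveI : CharP F 2 := ringChar.of_eq (FiniteField.even_card_iff_char_two.mpr h)
        exact CharTwo.two_eq_zero)
      rw [hcard, ← Nat.even_iff, Nat.not_even_iff_odd, Nat.odd_pow_iff hr.ne_zero] at h4
      exact h4
    have hsq : ∀ c : F, c * c ∈ F₀ → c ∈ F₀ := fun c hc => mem_subfield_of_sq F₀ hodd hoddq hcard hc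
    have hone : ∀ a c : Fin n, (1 : Matrix (Fin n) (Fin n) F) a c ∈ F₀ := fun a c => by
      rw [Matrix.one_apply]; split_ifs <;> first | exact one_mem _ | exact zero_mem _
    let φ : (Fin n → F) →ₗ[F] F :=
      (LinearMap.proj m).comp (Matrix.mulVecLin ((g⁻¹ : GL (Fin n) F) : Matrix (Fin n) (Fin n) F))
    set A := (g : Matrix (Fin n) (Fin n) F) *ᵥ Pi.single l 1 with hAdef
    have hφA : φ A = 0 := by
      change (((g⁻¹ : GL (Fin n) F) : Matrix (Fin n) (Fin n) F) *ᵥ A) m = 0
      rw [hAdef, gl_inv_mulVec, Pi.single_eq_of_ne hlm.symm]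
    have hA0 : A ≠ 0 := fun h0 => by
      have := congrArg (fun w => (((g⁻¹ : GL (Fin n) F) : Matrix (Fin n) (Fin n) F) *ᵥ w) l) h0
      rw [hAdef, gl_inv_mulVec, Matrix.mulVec_zero, Pi.single_eq_same, Pi.zero_apply] at this
      exact one_ne_zero this
    have hφ0 : ∃ x : Fin n, φ (Pi.single x 1) ≠ 0 := by
      by_contra hc; push Not at hc
      have : φ ((g : Matrix (Fin n) (Fin n) F) *ᵥ Pi.single m 1) = 0 := by
        rw [pi_eq_sum_univ' ((g : Matrix (Fin n) (Fin n) F) *ᵥ Pi.single m 1), map_sum]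
        exact Finset.sum_eq_zero fun x _ => by rw [map_smul, hc, smul_zero]
      change (((g⁻¹ : GL (Fin n) F) : Matrix (Fin n) (Fin n) F) *ᵥ _) m = 0 at this
      rw [gl_inv_mulVec, Pi.single_eq_same] at this
      exact one_ne_zero this
    obtain ⟨a, b, hab, hφa, hAb⟩ : ∃ a b, a ≠ b ∧ φ (Pi.single a 1) ≠ 0 ∧ A b ≠ 0 := by
      by_contra hc
      push Not at hc
      obtain ⟨a, ha⟩ := hφ0
      obtain ⟨b, hb⟩ := Function.ne_iff.mp hA0
      simp at hb
      have hab : b = a := by
        by_contra hne; exact hb (hc a b (Ne.symm hne) ha)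
      subst hab
      have : φ A = A b * φ (Pi.single b 1) := by
        rw [pi_eq_sum_univ' A, map_sum, Finset.sum_eq_single b]
        · rw [map_smul, smul_eq_mul, ← pi_eq_sum_univ' A]
        · intro x _ hx; rw [map_smul, hc b x (Ne.symm hx) ha, zero_smul]
        · simp
      rw [hφA] at this
      exact mul_ne_zero hb ha this.symm
    obtain ⟨z, hzM, hz1, hzz, hzrank, hzt, hzj⟩ := exists_plane_neg h2c hab φ A hφA hφa hAb
      (h1 (elm_mem_subGroupF hab (one_mem _))) hjM (fun v => hjv v)
    have hzS : z ∈ subGroupF (Fin n) F₀ := by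
      refine mem_of_commute_rational hn3 hr hcard hM ((elm hab (1 : F) : Matrix (Fin n) (Fin n) F) - 1)
        (fun x c => ?_) (fun h => ?_) ?_ hzM ?_
      · rw [Matrix.sub_apply, elm_apply, add_sub_cancel_left]
        split_ifs <;> first | exact one_mem _ | exact zero_mem _
      · have := congrFun (congrFun h a) b
        simp [elm_apply] at this
      · have hle : LinearMap.range ((elm hab (1 : F) : Matrix (Fin n) (Fin n) F) - 1).mulVecLin ≤
            Submodule.span F {(Pi.single a 1 : Fin n → F)} := by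
          rintro _ ⟨v, rfl⟩
          rw [Matrix.mulVecLin_apply, Matrix.sub_mulVec, Matrix.one_mulVec, elm_mulVec, add_sub_cancel_left]
          exact Submodule.mem_span_singleton.mpr ⟨_, rfl⟩
        have h4 := (Submodule.finrank_mono hle).trans (finrank_span_le_card ({(Pi.single a 1 : Fin n → F)} : Set _))
        simp only [Set.toFinset_singleton, Finset.card_singleton] at h4
        unfold Matrix.rank
        rw [Fintype.card_fin]; omega
      · rw [Matrix.mul_sub, Matrix.sub_mul, Matrix.mul_one, Matrix.one_mul, hzt]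
    refine hj (mem_of_commute_rational hn3 hr hcard hM ((z : Matrix (Fin n) (Fin n) F) - 1)
      (fun x c => sub_mem (rational_of_invol hsq hzz hzS x c) (hone x c))
      (fun h => hz1 (Units.ext (by rw [Units.val_one]; exact sub_eq_zero.mp h))) ?_ hjM ?_)
    · rw [Fintype.card_fin]; omega
    · rw [Matrix.mul_sub, Matrix.sub_mul, Matrix.mul_one, Matrix.one_mul, hzj]

/-- Every conjugate of the subfield group is maximal in the special linear group. -/
theorem sl_subfield_conj_maximal₆ [Fintype F] {n : ℕ} (hn : 4 ≤ n) (F₀ : Subfield F) {r : ℕ}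
    (hr : r.Prime) (hcard : Fintype.card F = Nat.card F₀ ^ r) (P : Matrix.GeneralLinearGroup (Fin n) F) :
    Cfsg.Geo.IsMaximalIn (Cfsg.Geo.specialLinear (Fin n) F)
      (Cfsg.Geo.subfieldSubgroup F₀ P ⊓ Cfsg.Geo.specialLinear (Fin n) F) := by
  haveI : Nonempty (Fin n) := ⟨⟨0, by omega⟩⟩
  have h := Cfsg.Agent.H98.isMaximalIn_conj P (sl_subfield_maximal₆ hn hr hcard)
  have hinj : Function.Injective (MulAut.conj P).toMonoidHom := (MulAut.conj P).injective
  have hsl : (Cfsg.Geo.specialLinear (Fin n) F).map (MulAut.conj P).toMonoidHom =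
      Cfsg.Geo.specialLinear (Fin n) F := by
    refine le_antisymm ?_ fun g hg => ⟨P⁻¹ * g * P, ?_, ?_⟩
    · rintro _ ⟨g, hg, rfl⟩
      exact Cfsg.Agent.H98.sl_conj_mem P g hg
    · have := Cfsg.Agent.H98.sl_conj_mem P⁻¹ g hg
      rwa [inv_inv] at this
    · change P * (P⁻¹ * g * P) * P⁻¹ = g
      group
  rw [Subgroup.map_inf _ _ _ hinj, hsl, ← Cfsg.Agent.H98.subfieldSubgroup_eq_map] at h
  exact h

end Cfsg.Agent.H50.LowDim
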